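import Mathlib

/-!
# Triples of points of the projective line
-/

set_option autoImplicit false

open Matrix
open scoped LinearAlgebra.Projectivization MatrixGroups

namespace CfsgLib.ClassicalLinear

universe u

variable {F : Type u} [Field F]

/-- The point of the projective line through a non-zero vector. -/
abbrev linePt (v : Fin 2 → F) (hv : v ≠ 0) : ℙ F (Fin 2 → F) := Projectivization.mk F v hv

theorem e0_ne_zero : (![1, 0] : Fin 2 → F) ≠ 0 := fun h => by simpa using congrFun h 0

theorem e1_ne_zero : (![0, 1] : Fin 2 → F) ≠ 0 := fun h => by simpa using congrFun h 1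

theorem e11_ne_zero : (![1, 1] : Fin 2 → F) ≠ 0 := fun h => by simpa using congrFun h 0

/-- Three distinct points are the images of `0`, `∞`, `1` under an invertible matrix. -/
theorem exists_gl_map_triple {a b c : ℙ F (Fin 2 → F)} (hab : a ≠ b) (hac : a ≠ c) (hbc : b ≠ c) :
    ∃ g : GL (Fin 2) F, g • linePt ![1, 0] e0_ne_zero = a ∧ g • linePt ![0, 1] e1_ne_zero = b ∧
      g • linePt ![1, 1] e11_ne_zero = c := by
  induction a using Projectivization.ind with | _ v hv => ?_
  induction b using Projectivization.ind with | _ w hw => ?_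
  induction c using Projectivization.ind with | _ u hu => ?_
  set D : F := v 0 * w 1 - v 1 * w 0 with hDdef
  have hD : D ≠ 0 := by
    intro h
    apply hab
    rw [Projectivization.mk_eq_mk_iff']
    have h' : v 0 * w 1 = v 1 * w 0 := sub_eq_zero.1 h
    by_cases h0 : w 0 = 0
    · have h1 : w 1 ≠ 0 := fun h1 => hw (funext fun i => by fin_cases i <;> assumption)
      have : v 0 = 0 := by
        rw [h0, mul_zero] at h'
        exact (mul_eq_zero.1 h').resolve_right h1
      exact ⟨v 1 / w 1, funext fun i => by fin_cases i <;> simp [h0, h1, this]⟩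
    · refine ⟨v 0 / w 0, funext fun i => ?_⟩
      fin_cases i <;> simp <;> field_simp
      linear_combination h'
  set α := (u 0 * w 1 - u 1 * w 0) / D with hαdef
  set β := (v 0 * u 1 - v 1 * u 0) / D with hβdef
  have hu_eq : u = α • v + β • w := by
    funext i
    fin_cases i <;> simp [hαdef, hβdef] <;> field_simp <;> rw [hDdef] <;> ring
  have hα : α ≠ 0 := by
    intro h
    apply hbc
    rw [Projectivization.mk_eq_mk_iff']
    rw [h, zero_smul, zero_add] at hu_eq
    have hβ0 : β ≠ 0 := fun h0 => hu (by rw [hu_eq, h0, zero_smul])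
    exact ⟨β⁻¹, by rw [hu_eq, smul_smul, inv_mul_cancel₀ hβ0, one_smul]⟩
  have hβ : β ≠ 0 := by
    intro h
    apply hac
    rw [Projectivization.mk_eq_mk_iff']
    rw [h, zero_smul, add_zero] at hu_eq
    exact ⟨α⁻¹, by rw [hu_eq, smul_smul, inv_mul_cancel₀ hα, one_smul]⟩
  let M : Matrix (Fin 2) (Fin 2) F := !![α * v 0, β * w 0; α * v 1, β * w 1]
  have hM : IsUnit M.det := by
    rw [isUnit_iff_ne_zero, det_fin_two_of,
      show α * v 0 * (β * w 1) - β * w 0 * (α * v 1) = α * β * D by rw [hDdef]; ring]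
    exact mul_ne_zero (mul_ne_zero hα hβ) hD
  refine ⟨Matrix.GeneralLinearGroup.mk'' M hM, ?_, ?_, ?_⟩ <;>
    rw [Projectivization.smul_mk, Projectivization.mk_eq_mk_iff']
  · refine ⟨α, ?_⟩
    change α • v = M *ᵥ ![1, 0]
    funext i
    fin_cases i <;> simp [M]
  · refine ⟨β, ?_⟩
    change β • w = M *ᵥ ![0, 1]
    funext i
    fin_cases i <;> simp [M]
  · refine ⟨1, ?_⟩
    change (1 : F) • u = M *ᵥ ![1, 1]
    rw [one_smul, hu_eq]
    funext i
    fin_cases i <;> simp [M]

/-- A matrix fixing the three standard points is scalar. -/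
theorem scalar_of_fix_standard {g : GL (Fin 2) F}
    (h0 : g • linePt (![1, 0] : Fin 2 → F) e0_ne_zero = linePt ![1, 0] e0_ne_zero)
    (h1 : g • linePt (![0, 1] : Fin 2 → F) e1_ne_zero = linePt ![0, 1] e1_ne_zero)
    (h2 : g • linePt (![1, 1] : Fin 2 → F) e11_ne_zero = linePt ![1, 1] e11_ne_zero) :
    ∃ u : Fˣ, Matrix.GeneralLinearGroup.scalar (Fin 2) u = g := by
  rw [Projectivization.smul_mk, Projectivization.mk_eq_mk_iff'] at h0 h1 h2
  obtain ⟨r, hr⟩ := h0
  obtain ⟨s, hs⟩ := h1
  obtain ⟨t, ht⟩ := h2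
  change r • _ = g.1 *ᵥ _ at hr
  change s • _ = g.1 *ᵥ _ at hs
  change t • _ = g.1 *ᵥ _ at ht
  have a0 := congrFun hr 0
  have a1 := congrFun hr 1
  have b0 := congrFun hs 0
  have b1 := congrFun hs 1
  have c0 := congrFun ht 0
  have c1 := congrFun ht 1
  simp [Matrix.mulVec, dotProduct, Fin.sum_univ_two] at a0 a1 b0 b1 c0 c1
  have hd := ((Matrix.isUnit_iff_isUnit_det _).1 g.isUnit).ne_zero
  rw [det_fin_two, ← a1, mul_zero, sub_zero] at hd
  have hne := (mul_ne_zero_iff.1 hd).1
  refine ⟨Units.mk0 _ hne, Units.ext ?_⟩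
  have heq : g.1 1 1 = g.1 0 0 := by
    rw [← b0, add_zero] at c0
    rw [← a1, zero_add] at c1
    exact c1.symm.trans c0
  ext i j
  fin_cases i <;> fin_cases j <;> simp [← a1, ← b0, heq]

end CfsgLib.ClassicalLinear
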